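import Mathlib
import Cfsg.Agent.Lib.Helper58.UPair.Defs
import Cfsg.Agent.Lib.Helper45.HermBasic

/-!
# S5984 (UPair), package [DETFIX]: the unitary matrices fixing both members of a totally singular
pair realise every determinant of norm 1.
-/

set_option autoImplicit false
open scoped MatrixGroups Matrix

namespace Cfsg.Agent.Lib.Helper20.UPair

open Cfsg.Agent.Lib.Helper58.UPair Cfsg.Agent.Lib.Helper45

universe u

/-- `c ↦ c ^ (q - 1)` maps `Fˣ` onto the elements of norm 1. -/
theorem exists_pow_pred_mul_eq_one {F : Type u} [Field F] [Fintype F] {q : ℕ}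
    (hF : Fintype.card F = q ^ 2) (d : F) (hd : d ^ (q + 1) = 1) :
    ∃ c : F, c ≠ 0 ∧ c ^ (q - 1) * d = 1 := by
  classical
  have hq2 := two_le_q hF
  have hd0 : d ≠ 0 := by
    rintro rfl
    simp at hd
  obtain ⟨g, hg⟩ := IsCyclic.exists_generator (α := Fˣ)
  have hord : orderOf g = q ^ 2 - 1 := by
    rw [orderOf_eq_card_of_forall_mem_zpowers hg, Nat.card_eq_fintype_card, Fintype.card_units, hF]
  obtain ⟨du, hdu⟩ : ∃ du : Fˣ, (du : F) = d := ⟨Units.mk0 d hd0, rfl⟩
  have hmem : du⁻¹ ∈ Submonoid.powers g := by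
    rw [mem_powers_iff_mem_zpowers]
    exact hg _
  obtain ⟨j, hj⟩ := hmem
  replace hj : g ^ j = du⁻¹ := hj
  have hdu1 : du ^ (q + 1) = 1 := by
    apply Units.ext
    rw [Units.val_pow_eq_pow_val, hdu, hd, Units.val_one]
  have h1 : g ^ (j * (q + 1)) = 1 := by
    rw [pow_mul, hj, inv_pow, hdu1, inv_one]
  have h2 : (q ^ 2 - 1) ∣ j * (q + 1) := by
    rw [← hord]
    exact orderOf_dvd_of_pow_eq_one h1
  have h3 : q ^ 2 - 1 = (q - 1) * (q + 1) := by
    obtain ⟨t, rfl⟩ : ∃ t, q = t + 1 := ⟨q - 1, by omega⟩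
    have e1 : (t + 1) ^ 2 - 1 = t * (t + 2) := by
      have e2 : (t + 1) ^ 2 = t * (t + 2) + 1 := by ring
      omega
    rw [e1, Nat.add_sub_cancel]
  rw [h3] at h2
  have h4 : (q - 1) ∣ j := Nat.dvd_of_mul_dvd_mul_right (by omega : 0 < q + 1) h2
  obtain ⟨i, hi⟩ := h4
  have h5 : (g ^ i) ^ (q - 1) = du⁻¹ := by rw [← pow_mul, mul_comm, ← hi, hj]
  have h6 : ((g ^ i : Fˣ) : F) ^ (q - 1) = d⁻¹ := by
    have h := congrArg (fun x : Fˣ => (x : F)) h5
    simp only [Units.val_pow_eq_pow_val, Units.val_inv_eq_inv_val, hdu] at h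
    simp only [Units.val_pow_eq_pow_val]
    exact h
  exact ⟨((g ^ i : Fˣ) : F), Units.ne_zero _, by rw [h6]; exact inv_mul_cancel₀ hd0⟩

theorem span_range_smul {F : Type u} [Field F] {V : Type*} [AddCommGroup V] [Module F V]
    {ι : Type*} (t : ι → F) (v : ι → V) (ht : ∀ i, t i ≠ 0) :
    Submodule.span F (Set.range (fun i => t i • v i)) = Submodule.span F (Set.range v) := by
  apply le_antisymm
  · rw [Submodule.span_le]
    rintro _ ⟨i, rfl⟩
    exact Submodule.smul_mem _ _ (Submodule.subset_span ⟨i, rfl⟩)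
  · rw [Submodule.span_le]
    rintro _ ⟨i, rfl⟩
    have h := Submodule.smul_mem (Submodule.span F (Set.range (fun i => t i • v i))) (t i)⁻¹
      (Submodule.subset_span ⟨i, rfl⟩)
    rwa [smul_smul, inv_mul_cancel₀ (ht i), one_smul] at h

/-- The hermitian form as a linear map in its first argument. -/
noncomputable def hermL {F : Type u} [Field F] [Fintype F] (n q : ℕ) (w : Fin n → F) :
    (Fin n → F) →ₗ[F] F where
  toFun u := Cfsg.hermForm n F q u w
  map_add' u u' := herm_add_left n u u' w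
  map_smul' c u := by
    rw [herm_smul_left]
    rfl

theorem hermL_apply {F : Type u} [Field F] [Fintype F] (n q : ℕ) (w u : Fin n → F) :
    hermL n q w u = Cfsg.hermForm n F q u w := rfl

theorem pkgDetFix : PkgDetFix.{u} := by
  intro F _ _ q n m D b d hF hD hb hd
  classical
  have hm : 0 < m := hD.1.pos
  have hq2 := two_le_q hF
  have hq0 : q ≠ 0 := by omega
  obtain ⟨c, hc0, hcd⟩ := exists_pow_pred_mul_eq_one hF d hd
  obtain ⟨i0, -⟩ : ∃ i0 : Fin m, i0 = ⟨0, hm⟩ := ⟨_, rfl⟩
  obtain ⟨s, hsdef⟩ : ∃ s : Fin m ⊕ Fin m → F,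
      s = Sum.elim (fun i => if i = i0 then c else 1) (fun i => if i = i0 then (c⁻¹) ^ q else 1) :=
    ⟨_, rfl⟩
  have hsl : ∀ i, s (Sum.inl i) = if i = i0 then c else 1 := fun i => by rw [hsdef]; rfl
  have hsr : ∀ i, s (Sum.inr i) = if i = i0 then (c⁻¹) ^ q else 1 := fun i => by rw [hsdef]; rfl
  have hs1 : ∀ i, s (Sum.inl i) * s (Sum.inr i) ^ q = 1 := by
    intro i
    rw [hsl, hsr]
    by_cases h : i = i0
    · rw [if_pos h, if_pos h, conj_conj hF]
      exact mul_inv_cancel₀ hc0
    · rw [if_neg h, if_neg h, one_pow, one_mul]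
  have hs2 : ∀ i, s (Sum.inr i) * s (Sum.inl i) ^ q = 1 := by
    intro i
    rw [hsl, hsr]
    by_cases h : i = i0
    · rw [if_pos h, if_pos h, ← mul_pow, inv_mul_cancel₀ hc0, one_pow]
    · rw [if_neg h, if_neg h, one_pow, one_mul]
  have hs0 : ∀ a, s a ≠ 0 := by
    intro a
    rcases a with i | i
    · rw [hsl]
      by_cases h : i = i0
      · rw [if_pos h]; exact hc0
      · rw [if_neg h]; exact one_ne_zero
    · rw [hsr]
      by_cases h : i = i0
      · rw [if_pos h]; exact pow_ne_zero _ (inv_ne_zero hc0)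
      · rw [if_neg h]; exact one_ne_zero
  obtain ⟨L, hLdef⟩ : ∃ L : (Fin n → F) →ₗ[F] (Fin n → F), L = b.constr F (fun a => s a • b a) :=
    ⟨_, rfl⟩
  have hL : ∀ a, L (b a) = s a • b a := fun a => by rw [hLdef]; exact b.constr_basis F _ a
  -- unitarity
  have hA : ∀ a a', Cfsg.hermForm n F q (L (b a)) (L (b a')) =
      Cfsg.hermForm n F q (b a) (b a') := by
    intro a a'
    rw [hL, hL, herm_smul_left, herm_smul_right]
    rcases a with i | i <;> rcases a' with j | j
    · rw [hD.2 0 _ (hb.1 i) _ (hb.1 j)]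
      simp
    · rw [hb.2.2 i j]
      by_cases hij : i = j
      · subst hij
        rw [if_pos rfl, mul_one]
        exact hs1 i
      · rw [if_neg hij]
        simp
    · rw [← herm_conj hF n (b (Sum.inl j)) (b (Sum.inr i)), hb.2.2 j i]
      by_cases hij : j = i
      · subst hij
        rw [if_pos rfl, one_pow, mul_one]
        exact hs2 j
      · rw [if_neg hij, zero_pow hq0]
        simp
    · rw [hD.2 1 _ (hb.2.1 i) _ (hb.2.1 j)]
      simp
  have hB : ∀ u a', Cfsg.hermForm n F q (L u) (L (b a')) = Cfsg.hermForm n F q u (b a') := by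
    intro u a'
    have h : (hermL n q (L (b a'))).comp L = hermL n q (b a') := by
      apply b.ext
      intro a
      rw [LinearMap.comp_apply, hermL_apply, hermL_apply]
      exact hA a a'
    have h' := congrArg (fun f : (Fin n → F) →ₗ[F] F => f u) h
    exact h'
  have hC : ∀ a u, Cfsg.hermForm n F q (L (b a)) (L u) = Cfsg.hermForm n F q (b a) u := by
    intro a u
    rw [← herm_conj hF n (L u) (L (b a)), hB u a, herm_conj hF]
  have hU : ∀ v u, Cfsg.hermForm n F q (L v) (L u) = Cfsg.hermForm n F q v u := by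
    intro v u
    have h : (hermL n q (L u)).comp L = hermL n q u := by
      apply b.ext
      intro a
      rw [LinearMap.comp_apply, hermL_apply, hermL_apply]
      exact hC a u
    have h' := congrArg (fun f : (Fin n → F) →ₗ[F] F => f v) h
    exact h'
  -- the matrix
  obtain ⟨k0, hk0⟩ : ∃ k0 : Matrix (Fin n) (Fin n) F, k0 = LinearMap.toMatrix' L := ⟨_, rfl⟩
  have hk0L : Matrix.toLin' k0 = L := by rw [hk0, Matrix.toLin'_toMatrix']
  have hmulVec : ∀ u, k0 *ᵥ u = L u := fun u => by rw [← Matrix.toLin'_apply, hk0L]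
  have hdiag : LinearMap.toMatrix b b L = Matrix.diagonal s := by
    ext i j
    rw [LinearMap.toMatrix_apply, hL, map_smul, b.repr_self, Matrix.diagonal_apply]
    by_cases hij : i = j
    · subst hij
      simp
    · rw [if_neg hij]
      simp [Ne.symm hij]
  have hprod : ∏ a, s a = c * (c⁻¹) ^ q := by
    rw [Fintype.prod_sum_type]
    simp only [hsl, hsr]
    rw [Finset.prod_ite_eq', Finset.prod_ite_eq']
    simp
  have hcq : c ^ q = c ^ (q - 1) * c := by
    rw [← pow_succ]
    congr 1
    omega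
  have hdval : c * (c⁻¹) ^ q = d := by
    have hd' : d = (c ^ (q - 1))⁻¹ := eq_inv_of_mul_eq_one_right hcd
    have hne : c ^ (q - 1) ≠ 0 := pow_ne_zero _ hc0
    rw [inv_pow, hcq, hd']
    field_simp
  have hdet : k0.det = d := by
    rw [hk0, LinearMap.det_toMatrix', ← LinearMap.det_toMatrix b L, hdiag, Matrix.det_diagonal,
      hprod, hdval]
  have hd0 : d ≠ 0 := by
    rintro rfl
    simp at hd
  have hdet0 : k0.det ≠ 0 := by rw [hdet]; exact hd0
  refine ⟨Matrix.GeneralLinearGroup.mkOfDetNeZero k0 hdet0, ?_, hdet, ?_⟩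
  · intro u v
    change Cfsg.hermForm n F q (k0 *ᵥ u) (k0 *ᵥ v) = Cfsg.hermForm n F q u v
    rw [hmulVec, hmulVec]
    exact hU u v
  · intro i
    change (D i).map (Matrix.toLin' k0) = D i
    rw [hk0L]
    have hspan : ∀ (i : Fin 2) (f : Fin m → Fin m ⊕ Fin m), Function.Injective f →
        (∀ x, b (f x) ∈ D i) → (D i).map L = D i := by
      intro i f hf hmem
      have hli : LinearIndependent F (fun x => b (f x)) := b.linearIndependent.comp f hf
      have hle : Submodule.span F (Set.range (fun x => b (f x))) ≤ D i := by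
        rw [Submodule.span_le]
        rintro _ ⟨x, rfl⟩
        exact hmem x
      have hfr : Module.finrank F (Submodule.span F (Set.range (fun x => b (f x)))) =
          Module.finrank F (D i) := by
        rw [finrank_span_eq_card hli, hD.1.finrank_eq i, Fintype.card_fin]
      have heq : Submodule.span F (Set.range (fun x => b (f x))) = D i :=
        Submodule.eq_of_le_of_finrank_eq hle hfr
      rw [← heq, Submodule.map_span, ← Set.range_comp]
      have hfun : (L ∘ fun x => b (f x)) = fun x => s (f x) • b (f x) := by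
        funext x
        exact hL (f x)
      rw [hfun]
      exact span_range_smul (fun x => s (f x)) (fun x => b (f x)) (fun x => hs0 (f x))
    fin_cases i
    · exact hspan 0 Sum.inl Sum.inl_injective hb.1
    · exact hspan 1 Sum.inr Sum.inr_injective hb.2.1

end Cfsg.Agent.Lib.Helper20.UPair
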