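import Mathlib
import Cfsg.Agent.Lib.Helper58.UPair.Defs

/-!
# S5984 (UPair), package [IDXDVD]: the index of the stabilizer of a totally singular pair in
`SU_n(q)`, times `|GL_m(q²)|`, divides `(q+1) |GU_n(q)|`.
-/

set_option autoImplicit false
open scoped MatrixGroups Matrix

namespace Cfsg.Agent.Lib.Helper20.UPair

open Cfsg.Agent.Lib.Helper58.UPair

universe u

theorem pkgIdxDvd_of (hDB : PkgDualBasis.{u}) (hE : PkgEmb.{u}) (hK : PkgCardK.{u}) :
    PkgIdxDvd.{u} := by
  intro F _ _ q n m D hF hD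
  obtain ⟨b, hb⟩ := hDB F q n m D hF hD
  obtain ⟨φ, hφinj, hφ⟩ := hE F q n m D b hF hD hb
  have hm : 1 ≤ m := hD.1.pos
  have hcardK := hK F q m hF hm
  have hq : q ≠ 0 := by
    rintro rfl
    have h0 : 0 < Fintype.card F := Fintype.card_pos
    rw [hF] at h0
    simp at h0
  obtain ⟨K, hKdef⟩ : ∃ K : Subgroup (GL (Fin m) F),
      K = ((powMonoidHom (q - 1) : Fˣ →* Fˣ).comp Matrix.GeneralLinearGroup.det).ker := ⟨_, rfl⟩
  have hKmem : ∀ A : GL (Fin m) F,
      A ∈ K ↔ (A : Matrix (Fin m) (Fin m) F).det ^ (q - 1) = 1 := by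
    intro A
    rw [hKdef, MonoidHom.mem_ker]
    show (Matrix.GeneralLinearGroup.det A) ^ (q - 1) = 1 ↔ _
    rw [← Units.val_inj]
    simp
  have hcardK' : Nat.card K * (q + 1) = Nat.card (GL (Fin m) F) := by
    rw [← hcardK]
    congr 1
    exact Nat.card_congr (Equiv.subtypeEquivRight hKmem)
  obtain ⟨S', hS'⟩ : ∃ S' : Subgroup (GL (Fin n) F),
      S' = Cfsg.Geo.decompositionStabilizer D ⊓ Gp n F q := ⟨_, rfl⟩
  have hle : K.map φ ≤ S' := by
    rintro _ ⟨A, hA, rfl⟩
    obtain ⟨hGU, hfix, hdet⟩ := hφ A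
    rw [hS', Subgroup.mem_inf]
    refine ⟨⟨1, fun i => by simpa using hfix i⟩, ?_⟩
    rw [Subgroup.mem_inf]
    refine ⟨hGU, ?_⟩
    show φ A ∈ (Matrix.GeneralLinearGroup.det : GL (Fin n) F →* Fˣ).ker
    rw [MonoidHom.mem_ker, ← Units.val_inj]
    have hA' := (hKmem A).mp hA
    have hdetA : (A : Matrix (Fin m) (Fin m) F).det ≠ 0 := by
      have := (Matrix.GeneralLinearGroup.det A).ne_zero
      simpa using this
    have hq' : (A : Matrix (Fin m) (Fin m) F).det ^ q = (A : Matrix (Fin m) (Fin m) F).det := by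
      calc (A : Matrix (Fin m) (Fin m) F).det ^ q
          = (A : Matrix (Fin m) (Fin m) F).det ^ (q - 1 + 1) := by congr 1; omega
        _ = (A : Matrix (Fin m) (Fin m) F).det := by rw [pow_succ, hA', one_mul]
    rw [hq'] at hdet
    have h1 : ((φ A : GL (Fin n) F) : Matrix (Fin n) (Fin n) F).det = 1 :=
      mul_right_cancel₀ hdetA (by rw [hdet, one_mul])
    simpa using h1
  have h1 : Nat.card K ∣ Nat.card S' := by
    have h := Subgroup.card_dvd_of_le hle
    rwa [Subgroup.card_map_of_injective hφinj] at h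
  have h2 : Nat.card S' * (Cfsg.Geo.decompositionStabilizer D).relIndex (Gp n F q) =
      Nat.card (Gp n F q) := by
    have h := Subgroup.relIndex_mul_relIndex (⊥ : Subgroup (GL (Fin n) F)) S' (Gp n F q) bot_le
      (by rw [hS']; exact inf_le_right)
    rw [Subgroup.relIndex_bot_left, Subgroup.relIndex_bot_left] at h
    rw [← h, hS', Subgroup.inf_relIndex_right]
  have h3 : Nat.card (Gp n F q) ∣ Nat.card (Cfsg.GU n F q) := Subgroup.card_dvd_of_le inf_le_left
  rw [← hcardK']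
  obtain ⟨c, hc⟩ := h1
  obtain ⟨d, hd⟩ := h3
  refine ⟨c * d, ?_⟩
  rw [hd, ← h2, hc]
  ring

end Cfsg.Agent.Lib.Helper20.UPair
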